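import Mathlib
import Cfsg.Agent.Comp.MatVec
import Cfsg.Agent.Chev.SzAut
import Cfsg.Agent.Chev.SzLie
import Cfsg.Agent.CIT.SpecPG
import Cfsg.Agent.PLocal.AmbSyl

/-! Standard subgroups `A ≅ Sz(8)`: coordinates on a Sylow 2-subgroup of `A`, the set `D` of conjugates of
involutions of `C(A)`, the Sylow 2-subgroup `R × T` of `N(A)`. -/

set_option autoImplicit false

namespace Cfsg.Agent.RuS

open Subgroup Cfsg.Agent.PLocal.Amb Cfsg.Agent.Comp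

scoped notation "𝔽" => GF8
scoped notation "𝐥" => GF8.c 2
scoped notation "𝐞" => GF8.c 7

theorem two0 : (2 : 𝔽) = 0 := by decide +kernel
theorem add_self' (a : 𝔽) : a + a = 0 := by revert a; decide +kernel
theorem add_eq0 {a b : 𝔽} : a + b = 0 ↔ a = b := by revert a b; decide +kernel
theorem p5_eq0 {a : 𝔽} : a ^ 5 = 0 ↔ a = 0 := pow_eq_zero_iff (by norm_num)
theorem ex_p5 (b : 𝔽) : ∃ a : 𝔽, a ^ 5 = b := by revert b; decide +kernel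
theorem ex_pow (c : 𝔽) (h : c ≠ 0) : ∃ i : ℕ, 𝐥 ^ i = c ∧ 𝐞 ^ i = c ^ 5 := by
  have : ∀ c : 𝔽, c ≠ 0 → ∃ i : Fin 7, 𝐥 ^ i.1 = c ∧ 𝐞 ^ i.1 = c ^ 5 := by decide +kernel
  obtain ⟨i, h⟩ := this c h
  exact ⟨i, h⟩
theorem ex_pow' (c : 𝔽) (h : c ≠ 0) : ∃ i : ℕ, 𝐞 ^ i = c := by
  obtain ⟨a, rfl⟩ := ex_p5 c
  obtain ⟨i, -, h⟩ := ex_pow a fun e => h (p5_eq0.2 e)
  exact ⟨i, h⟩

/-- the commutator form of the Suzuki 2-group -/
def B0 (a c : 𝔽) : 𝔽 := a ^ 4 * c + a * c ^ 4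

variable {G : Type*} [Group G]

/-- `A ≅ Sz(8)` with coordinates, and `C(A)` tightly embedded -/
structure St (A : Subgroup G) (τ : 𝔽 → 𝔽 → G) (h : G) : Prop where
  mul : ∀ a b c d, τ a b * τ c d = τ (a + c) (b + d + a ^ 4 * c)
  inj : ∀ {a b c d}, τ a b = τ c d → a = c ∧ b = d
  mem : ∀ a b, τ a b ∈ A
  hmem : h ∈ A
  hconj : ∀ a b, h * τ a b * h⁻¹ = τ (𝐥 * a) (𝐞 * b)
  cent : ∀ b, b ≠ 0 → ∀ x ∈ A, x * τ 0 b = τ 0 b * x → ∃ a c, x = τ a c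
  sylA : ∀ P : Subgroup G, IsPGroup 2 P → P ≤ A → ∃ g ∈ A, ∀ x ∈ P, ∃ a b, g * x * g⁻¹ = τ a b
  card : Nat.card A = 29120
  nsolv : ¬ Group.IsSolvable A
  out : ∀ m ∈ 𝐍[A], ∃ a ∈ A, ∃ k ∈ 𝐂[A], m ^ 3 = a * k
  te : ∀ g k, k ∈ 𝐂[A] → k ≠ 1 → k * k = 1 → g * k * g⁻¹ ∈ 𝐂[A] → g ∈ 𝐍[A]

open Chev Chev.Suz in
theorem exists_St [Finite G] {A : Subgroup G} (hA : IsStandardSubgroup A) {F : Type*} [Field F] [Fintype F]
    (hF : Fintype.card F = 8) (e : A ≃* Lie.Sz F 4) : ∃ τ h, St A τ h := by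
  haveI : SzField 𝔽 1 := SzField.of_fintype le_rfl GF8.card
  obtain ⟨e1⟩ := CIT.nonempty_lieSz_equiv (F := F) (K := 𝔽) (m := 1) le_rfl hF GF8.card
  have f : Cfsg.Sz 𝔽 1 ≃* A := (e.trans (e1.trans (lieEquiv 𝔽).symm)).symm
  have th4 : ∀ x : 𝔽, th 𝔽 x = x ^ 4 := fun x => th_def x
  let l : 𝔽ˣ := Units.mk0 (GF8.c 4) (by decide)
  refine ⟨fun a b => f (uu a b), f (hh l), fun a b c d => ?_, fun h => ?_, fun a b => (f _).2, (f _).2,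
    fun a b => ?_, fun b hb x hx h => ?_, fun P hP hPA => ?_, ?_, ?_, fun m hm => ?_, fun g k hk h1 h2 h3 => ?_⟩
  · rw [← coe_mul, ← map_mul, uu_mul, th4]
  · exact uu_inj.1 (f.injective (Subtype.ext h))
  · rw [← coe_mul, ← coe_inv, ← coe_mul, ← map_inv, ← map_mul, ← map_mul, hh_conj_uu, th4,
      show ((l : 𝔽) ^ 4) = 𝐥 by decide +kernel, show (l : 𝔽) ^ 2 * 𝐥 = 𝐞 by decide +kernel]
  · obtain ⟨y, hy⟩ := f.surjective ⟨x, hx⟩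
    obtain rfl : x = f y := by rw [hy]
    have h' : y * uu 0 b = uu 0 b * y := f.injective (Subtype.ext (by simpa using h))
    have h1 : uu (0 : 𝔽) b ≠ 1 := fun e => hb (uu_eq_one.1 e).2
    obtain ⟨a, c, k, rfl⟩ := (smul_inf_eq_iff y).1 (uu_fix h1 (by
      rw [← mul_smul, ← h', mul_smul, (fix_inf_pow_four.2 ⟨0, b, rfl⟩).1]))
    rw [mul_assoc, hh_mul_uu, ← mul_assoc, ← mul_assoc, mul_left_inj, uu_mul, uu_mul, uu_inj] at h'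
    have h2 : (k : 𝔽) ^ 2 * th 𝔽 k = 1 := mul_right_cancel₀ hb (by
      have := h'.2
      simp only [mul_zero, map_zero, zero_mul, add_zero] at this
      rw [one_mul]; exact add_left_cancel (this.trans (add_comm _ _)))
    refine ⟨a, c, ?_⟩
    rw [sq_th_unit_eq_one h2, hh_eq_one.2 rfl, mul_one]
  · obtain ⟨p, hp⟩ := exists_le_Qp (P := (P.subgroupOf A).map f.symm.toMonoidHom)
      ((isPGroup_subgroupOf hP A).map _)
    obtain ⟨k, rfl⟩ := exists_smul_inf p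
    refine ⟨f k⁻¹, (f _).2, fun x hx => ?_⟩
    obtain ⟨a, b, h⟩ := mem_Qp_inf.1 ((conj_mem_Qp_iff k _ _).2 (hp ⟨⟨x, hPA hx⟩, hx, rfl⟩))
    refine ⟨a, b, ?_⟩
    rw [← h]; simp
  · rw [← Nat.card_congr f.toEquiv, card_Sz]; norm_num
  · have := hA.1.1
    have : Nontrivial A := f.symm.toEquiv.nontrivial
    exact Group.IsPerfect.not_isSolvable A
  · let α : MulAut (Cfsg.Sz 𝔽 1) := (f.trans (A.normalizerMonoidHom ⟨m, hm⟩)).trans f.symm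
    have hn : (MulAut.conj : Cfsg.Sz 𝔽 1 →* MulAut (Cfsg.Sz 𝔽 1)).range.Normal :=
      ⟨by rintro _ ⟨g, rfl⟩ β; exact ⟨β g, by ext x; simp⟩⟩
    have h3 := (MulAut.conj : Cfsg.Sz 𝔽 1 →* MulAut (Cfsg.Sz 𝔽 1)).range.pow_index_mem α
    rw [index, card_out] at h3
    obtain ⟨g, hg⟩ := h3
    refine ⟨f g, (f _).2, (f g : G)⁻¹ * m ^ 3, mem_centralizer_iff.2 fun x hx => ?_, by group⟩
    have h4 := congrArg (fun β : MulAut (Cfsg.Sz 𝔽 1) => ((f (β (f.symm ⟨x, hx⟩)) : A) : G)) hg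
    have h5 : ∀ y, ((f (α y) : A) : G) = m * f y * m⁻¹ := fun y => by
      simp only [α, MulEquiv.trans_apply, MulEquiv.apply_symm_apply]; rfl
    simp only [show 2 * 1 + 1 = 3 from rfl, pow_succ, pow_zero, one_mul, MulAut.mul_apply, h5,
      MulAut.conj_apply, map_mul, map_inv, MulEquiv.apply_symm_apply, coe_mul, coe_inv] at h4
    calc x * ((f g : G)⁻¹ * m ^ 3) = (f g : G)⁻¹ * (f g * x * (f g : G)⁻¹) * m ^ 3 := by group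
      _ = _ := by rw [h4, pow_three']; simp only [mul_assoc, inv_mul_cancel_left, inv_mul_cancel, mul_one]
  · rw [hA.2.2.2]
    by_contra hg
    have ho := hA.2.1.2 g hg
    have : g * k * g⁻¹ ∈ 𝐂[A] ⊓ cj(g, 𝐂[A]) := ⟨h3, conj_mem_cj g hk⟩
    have h4 : orderOf (g * k * g⁻¹) = 2 := by
      rw [orderOf_conj']
      haveI := Fact.mk Nat.prime_two
      exact orderOf_eq_prime (by rw [pow_two, h2]) h1
    have := h4 ▸ orderOf_dvd_natCard _ this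
    exact Nat.not_even_iff_odd.2 ho (even_iff_two_dvd.2 this)

/-- conjugates of involutions of `C(A)` -/
def InD (A : Subgroup G) (d : G) : Prop := ∃ g k, k ∈ 𝐂[A] ∧ k ≠ 1 ∧ k * k = 1 ∧ d = g * k * g⁻¹

theorem InD.conj {A : Subgroup G} {d : G} (h : InD A d) (x : G) : InD A (x * d * x⁻¹) := by
  obtain ⟨g, k, h1, h2, h3, rfl⟩ := h
  exact ⟨x * g, k, h1, h2, h3, by group⟩

theorem InD.of_conj {A : Subgroup G} {d x : G} (h : InD A (x * d * x⁻¹)) : InD A d := by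
  simpa [mul_assoc] using h.conj x⁻¹

theorem InD.ne {A : Subgroup G} {d : G} (h : InD A d) : d ≠ 1 := by
  obtain ⟨g, k, -, h2, -, rfl⟩ := h
  simpa using h2

theorem InD.sq {A : Subgroup G} {d : G} (h : InD A d) : d * d = 1 := by
  obtain ⟨g, k, -, -, h3, rfl⟩ := h
  rw [conj_mul, h3, mul_one, mul_inv_cancel]

theorem inD_of {A : Subgroup G} {k : G} (h1 : k ∈ 𝐂[A]) (h2 : k ≠ 1) (h3 : k * k = 1) : InD A k :=
  ⟨1, k, h1, h2, h3, by simp⟩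

theorem pgrp_inv {x : G} (h : x * x = 1) : IsPGroup 2 (zpowers x) :=
  isPGroup_zpowers ⟨1, by rw [pow_one, pow_two, h]⟩

theorem ex_inv [Finite G] {P : Subgroup G} (hP : IsPGroup 2 P) {x : G} (hx : x ∈ P) (h1 : x ≠ 1) :
    ∃ n : ℕ, x ^ n ≠ 1 ∧ x ^ n * x ^ n = 1 := by
  obtain ⟨k, hk⟩ := isPGroup_iff.1 hP x hx
  induction k with
  | zero => exact absurd (by simpa using hk) h1
  | succ k ih =>
    by_cases h : x ^ 2 ^ k = 1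
    · exact ih h
    · exact ⟨_, h, by rw [← pow_add, ← two_mul, ← pow_succ', hk]⟩

/-- the Sylow subgroup `T` -/
def TT (τ : 𝔽 → 𝔽 → G) : Subgroup G := closure {x | ∃ a b, x = τ a b}
/-- its centre `Z` -/
def ZZ (τ : 𝔽 → 𝔽 → G) : Subgroup G := closure {x | ∃ b, x = τ 0 b}

namespace St

variable {A R : Subgroup G} {τ : 𝔽 → 𝔽 → G} {h : G} (H : St A τ h)
include H

theorem one : τ 0 0 = 1 := by
  have := H.mul 0 0 0 0
  simp only [add_zero, mul_zero] at this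
  exact mul_eq_left.1 this

theorem eq_one {a b : 𝔽} : τ a b = 1 ↔ a = 0 ∧ b = 0 :=
  ⟨fun e => H.inj (e.trans H.one.symm), fun e => by rw [e.1, e.2, H.one]⟩

theorem zne {b : 𝔽} (hb : b ≠ 0) : τ 0 b ≠ 1 := fun e => hb (H.eq_one.1 e).2

theorem zinj {b c : 𝔽} (e : τ 0 b = τ 0 c) : b = c := (H.inj e).2

theorem mulz (a b d : 𝔽) : τ a b * τ 0 d = τ a (b + d) := by simp [H.mul]

theorem zmul (a b d : 𝔽) : τ 0 d * τ a b = τ a (b + d) := by simp [H.mul, add_comm]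

theorem zz (b : 𝔽) : τ 0 b * τ 0 b = 1 := by rw [H.mulz, add_self', H.one]

theorem zinv (b : 𝔽) : (τ 0 b)⁻¹ = τ 0 b := inv_eq_of_mul_eq_one_right (H.zz b)

theorem sq (a b : 𝔽) : τ a b * τ a b = τ 0 (a ^ 5) := by
  rw [H.mul, add_self', add_self', zero_add, ← pow_succ]

theorem inv (a b : 𝔽) : (τ a b)⁻¹ = τ a (b + a ^ 5) := inv_eq_of_mul_eq_one_right (by
  rw [H.mul, H.eq_one, add_self', ← add_assoc, add_self', zero_add, ← pow_succ, add_self']; exact ⟨rfl, rfl⟩)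

theorem comm (a b c d : 𝔽) : τ a b * τ c d = τ c d * τ a b * τ 0 (B0 a c) := by
  rw [H.mul, H.mul, H.mulz, add_comm c a, B0]
  congr 1
  linear_combination (-c ^ 4 * a) * two0

theorem zcomm (a b d : 𝔽) : τ 0 d * τ a b = τ a b * τ 0 d := by rw [H.mulz, H.zmul]

theorem hpow (i : ℕ) (a b : 𝔽) : h ^ i * τ a b * (h ^ i)⁻¹ = τ (𝐥 ^ i * a) (𝐞 ^ i * b) := by
  induction i with
  | zero => simp
  | succ i ih =>
    rw [pow_succ', pow_succ', pow_succ', mul_assoc 𝐥, mul_assoc 𝐞, ← H.hconj, ← ih]; group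

theorem mem_T {x : G} : x ∈ TT τ ↔ ∃ a b, x = τ a b := by
  refine ⟨fun hx => ?_, fun hx => subset_closure hx⟩
  induction hx using closure_induction with
  | mem x hx => exact hx
  | one => exact ⟨0, 0, H.one.symm⟩
  | mul x y _ _ hx hy => obtain ⟨a, b, rfl⟩ := hx; obtain ⟨c, d, rfl⟩ := hy; exact ⟨_, _, H.mul ..⟩
  | inv x _ hx => obtain ⟨a, b, rfl⟩ := hx; exact ⟨_, _, H.inv ..⟩

theorem mem_Z {x : G} : x ∈ ZZ τ ↔ ∃ b, x = τ 0 b := by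
  refine ⟨fun hx => ?_, fun hx => subset_closure hx⟩
  induction hx using closure_induction with
  | mem x hx => exact hx
  | one => exact ⟨0, H.one.symm⟩
  | mul x y _ _ hx hy => obtain ⟨a, rfl⟩ := hx; obtain ⟨c, rfl⟩ := hy; exact ⟨_, H.mulz ..⟩
  | inv x _ hx => obtain ⟨a, rfl⟩ := hx; exact ⟨_, H.zinv _⟩

theorem tT (a b : 𝔽) : τ a b ∈ TT τ := H.mem_T.2 ⟨a, b, rfl⟩
theorem zZ (b : 𝔽) : τ 0 b ∈ ZZ τ := H.mem_Z.2 ⟨b, rfl⟩
theorem TA : TT τ ≤ A := fun _ hx => by obtain ⟨a, b, rfl⟩ := H.mem_T.1 hx; exact H.mem a b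
theorem ZT : ZZ τ ≤ TT τ := fun _ hx => by obtain ⟨a, rfl⟩ := H.mem_Z.1 hx; exact H.tT _ _

theorem pT : IsPGroup 2 (TT τ) := isPGroup_iff.2 fun x hx => by
  obtain ⟨a, b, rfl⟩ := H.mem_T.1 hx
  exact ⟨2, by rw [show 2 ^ 2 = 2 * 2 from rfl, pow_mul, pow_two, pow_two, H.sq, H.zz]⟩

theorem cardT : Nat.card (TT τ) = 64 := by
  rw [← Nat.card_congr (Equiv.ofBijective (fun p : 𝔽 × 𝔽 => (⟨τ p.1 p.2, H.tT _ _⟩ : TT τ))
    ⟨fun p q e => Prod.ext_iff.2 (H.inj (congrArg Subtype.val e)), fun x => by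
      obtain ⟨a, b, e⟩ := H.mem_T.1 x.2; exact ⟨(a, b), Subtype.ext e.symm⟩⟩), Nat.card_prod,
    Nat.card_eq_fintype_card, GF8.card]

theorem cardZ : Nat.card (ZZ τ) = 8 := by
  rw [← Nat.card_congr (Equiv.ofBijective (fun p : 𝔽 => (⟨τ 0 p, H.zZ _⟩ : ZZ τ))
    ⟨fun p q e => H.zinj (congrArg Subtype.val e), fun x => by
      obtain ⟨a, e⟩ := H.mem_Z.1 x.2; exact ⟨a, Subtype.ext e.symm⟩⟩),
    Nat.card_eq_fintype_card, GF8.card]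

omit H in
theorem kc {k x : G} (hk : k ∈ 𝐂[A]) (hx : x ∈ A) : x * k = k * x := mem_centralizer_iff.1 hk x hx

theorem kt {k : G} (hk : k ∈ 𝐂[A]) (a b : 𝔽) : τ a b * k = k * τ a b := kc hk (H.mem a b)

theorem AK {x : G} (h1 : x ∈ A) (h2 : x ∈ 𝐂[A]) : x = 1 := by
  obtain ⟨a, c, rfl⟩ := H.cent 1 one_ne_zero x h1 (H.kt h2 0 1).symm
  have := H.hconj a c
  rw [kc h2 H.hmem, mul_inv_cancel_right] at this
  have h3 : ∀ a c : 𝔽, a = 𝐥 * a ∧ c = 𝐞 * c → a = 0 ∧ c = 0 := by decide +kernel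
  exact H.eq_one.2 (h3 a c (H.inj this))

theorem uniq {k k' : G} {a b c d : 𝔽} (hk : k ∈ 𝐂[A]) (hk' : k' ∈ 𝐂[A]) (e : k * τ a b = k' * τ c d) :
    k = k' ∧ a = c ∧ b = d := by
  have h1 : k'⁻¹ * k = τ c d * (τ a b)⁻¹ := by rw [eq_mul_inv_iff_mul_eq, mul_assoc, e]; group
  have h2 := H.AK (h1 ▸ A.mul_mem (H.mem c d) (A.inv_mem (H.mem a b))) (mul_mem (inv_mem hk') hk)
  obtain rfl := inv_mul_eq_one.1 h2
  exact ⟨rfl, H.inj (mul_left_cancel e)⟩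

theorem kmul {k k' : G} (hk' : k' ∈ 𝐂[A]) (a b c d : 𝔽) :
    k * τ a b * (k' * τ c d) = k * k' * τ (a + c) (b + d + a ^ 4 * c) := by
  rw [← H.mul, mul_assoc, ← mul_assoc (τ a b), H.kt hk']; group

theorem ksq {k : G} (hk : k ∈ 𝐂[A]) (a b : 𝔽) : k * τ a b * (k * τ a b) = k * k * τ 0 (a ^ 5) := by
  rw [← H.sq a b, mul_assoc, ← mul_assoc (τ a b), H.kt hk]; group

theorem kinv {k : G} {a b : 𝔽} (hk : k ∈ 𝐂[A]) (e : k * τ a b * (k * τ a b) = 1) : k * k = 1 ∧ a = 0 := by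
  rw [H.ksq hk, ← one_mul (1 : G), ← H.one.trans rfl] at e
  rw [show τ 0 0 * τ 0 0 = 1 * τ 0 0 by rw [H.one]] at e
  have := H.uniq (mul_mem hk hk) (one_mem _) e
  exact ⟨this.1, p5_eq0.1 this.2.2⟩

omit H in
theorem KM : 𝐂[A] ≤ 𝐍[A] := centralizer_le_normalizer' A

omit H in
theorem conjK {m k : G} (hm : m ∈ 𝐍[A]) (hk : k ∈ 𝐂[A]) : m * k * m⁻¹ ∈ 𝐂[A] :=
  conj_mem_of_mem_normalizer (normalizer_le_normalizer_centralizer A hm) hk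

theorem cM {g k : G} (hk : k ∈ 𝐂[A]) (h1 : k ≠ 1) (h2 : k * k = 1) (e : g * k = k * g) : g ∈ 𝐍[A] :=
  H.te g k hk h1 h2 (by rwa [e, mul_inv_cancel_right])

theorem two_mem {P : Subgroup G} (hP : IsPGroup 2 P) (hM : P ≤ 𝐍[A]) : P ≤ A ⊔ 𝐂[A] := fun x hx => by
  obtain ⟨a, ha, k, hk, e⟩ := H.out x (hM hx)
  obtain ⟨n, hn⟩ := isPGroup_iff.1 hP x hx
  exact mem_of_pow_mem_of_coprime (n := 3) (e ▸ mul_mem (mem_sup_left ha) (mem_sup_right hk))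
    (Nat.Coprime.coprime_dvd_left (orderOf_dvd_of_pow_eq_one hn) (Nat.Coprime.pow_left _ (by norm_num)))

theorem sylT [Finite G] : IsSyl 2 (TT τ) A := by
  refine ⟨H.TA, H.pT, fun P hP h1 h2 => ?_⟩
  obtain ⟨g, -, hg⟩ := H.sylA P hP h2
  have := card_le_of_le (H := cj(g, P)) (K := TT τ) (cj_le_iff_forall.2 fun x hx => H.mem_T.2 (hg x hx))
  exact (eq_of_le_of_card_ge h1 (by rwa [card_cj] at this)).ge

theorem mem_S0 (hR : R ≤ 𝐂[A]) {x : G} : x ∈ R ⊔ TT τ ↔ ∃ r ∈ R, ∃ a b, x = r * τ a b := by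
  rw [mem_sup_of_le_normalizer_right (hR.trans ((centralizer_anti H.TA).trans (centralizer_le_normalizer' _)))]
  exact ⟨fun ⟨r, hr, t, ht, e⟩ => by obtain ⟨a, b, rfl⟩ := H.mem_T.1 ht; exact ⟨r, hr, a, b, e⟩,
    fun ⟨r, hr, a, b, e⟩ => ⟨r, hr, _, H.tT a b, e⟩⟩

theorem rt (hR : R ≤ 𝐂[A]) {r : G} (hr : r ∈ R) (a b : 𝔽) : r * τ a b ∈ R ⊔ TT τ :=
  (H.mem_S0 hR).2 ⟨r, hr, a, b, rfl⟩

theorem S0M (hR : R ≤ 𝐂[A]) : R ⊔ TT τ ≤ 𝐍[A] := sup_le (hR.trans KM) (H.TA.trans le_normalizer)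

theorem S0K (hR : R ≤ 𝐂[A]) {x : G} (hx : x ∈ R ⊔ TT τ) (hk : x ∈ 𝐂[A]) : x ∈ R := by
  obtain ⟨r, hr, a, b, rfl⟩ := (H.mem_S0 hR).1 hx
  rwa [H.AK (H.mem a b) ((mul_mem_cancel_left (hR hr)).1 hk), mul_one]

theorem S0A (hR : R ≤ 𝐂[A]) {x : G} (hx : x ∈ R ⊔ TT τ) (hk : x ∈ A) : ∃ a b, x = τ a b := by
  obtain ⟨r, hr, a, b, rfl⟩ := (H.mem_S0 hR).1 hx
  exact ⟨a, b, by rw [H.AK ((mul_mem_cancel_right (H.mem a b)).1 hk) (hR hr), one_mul]⟩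

theorem sylS0 [Finite G] (hR : IsSyl 2 R 𝐂[A]) : IsSyl 2 (R ⊔ TT τ) 𝐍[A] := by
  have hn : R ≤ 𝐍[TT τ] := hR.le.trans ((centralizer_anti H.TA).trans (centralizer_le_normalizer' _))
  refine ⟨H.S0M hR.le, isPGroup_sup hR.pgrp H.pT hn, fun P hP h1 h2 x hx => ?_⟩
  obtain ⟨a, ha, k, hk, rfl⟩ := (mem_sup_of_le_normalizer_left KM).1 (H.two_mem hP h2 hx)
  have c : Commute a k := kc hk ha
  obtain ⟨n, hn'⟩ := isPGroup_iff.1 hP _ hx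
  rw [c.mul_pow] at hn'
  have h3 : a ^ 2 ^ n = 1 := H.AK (pow_mem ha _) (eq_inv_of_mul_eq_one_left hn' ▸ inv_mem (pow_mem hk _))
  rw [h3, one_mul] at hn'
  have hT : P ⊓ A ≤ TT τ := H.sylT.max _ (hP.to_le inf_le_left) (le_inf (le_sup_right.trans h1) H.TA) inf_le_right
  have hK : P ⊓ 𝐂[A] ≤ R := hR.max _ (hP.to_le inf_le_left) (le_inf (le_sup_left.trans h1) hR.le) inf_le_right
  have a1 : a ∈ TT τ := H.sylT.le_of_normalizes (isPGroup_zpowers ⟨n, h3⟩) (zpowers_le.2 ha)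
    (zpowers_le.2 (mem_normalizer_of_cj_le (cj_le_iff_forall.2 fun t ht => hT ⟨by
      have : a * t * a⁻¹ = a * k * t * (a * k)⁻¹ := by rw [mul_assoc a k, ← kc hk (H.TA ht)]; group
      rw [this]; exact P.mul_mem (P.mul_mem hx (h1 (mem_sup_right ht))) (P.inv_mem hx),
      A.mul_mem (A.mul_mem ha (H.TA ht)) (A.inv_mem ha)⟩))) (mem_zpowers a)
  have k1 : k ∈ R := hK ⟨(mul_mem_cancel_left (h1 (mem_sup_right a1))).1 hx, hk⟩
  exact mul_mem (mem_sup_right a1) (mem_sup_left k1)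

theorem cardS0 [Finite G] (hR : R ≤ 𝐂[A]) : Nat.card ↥(R ⊔ TT τ) = Nat.card R * 64 := by
  rw [← Nat.card_congr (Equiv.ofBijective
    (fun p : R × 𝔽 × 𝔽 => (⟨p.1 * τ p.2.1 p.2.2, H.rt hR p.1.2 _ _⟩ : ↥(R ⊔ TT τ)))
    ⟨fun p q e => by
      have := H.uniq (hR p.1.2) (hR q.1.2) (congrArg Subtype.val e)
      exact Prod.ext (Subtype.ext this.1) (Prod.ext this.2.1 this.2.2), fun x => by
      obtain ⟨r, hr, a, b, e⟩ := (H.mem_S0 hR).1 x.2; exact ⟨(⟨r, hr⟩, a, b), Subtype.ext e.symm⟩⟩),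
    Nat.card_prod, Nat.card_prod, Nat.card_eq_fintype_card (α := 𝔽), GF8.card]

/-- extremal conjugation -/
theorem ex [Finite G] (hR : IsSyl 2 R 𝐂[A]) {d : G} (hd : InD A d) {P : Subgroup G} (hP : IsPGroup 2 P)
    (hc : ∀ x ∈ P, x * d = d * x) : ∃ g, g * d * g⁻¹ ∈ R ∧ ∀ x ∈ P, g * x * g⁻¹ ∈ R ⊔ TT τ := by
  obtain ⟨g, k, h1, h2, h3, rfl⟩ := hd
  have h4 : ∀ x ∈ cj(g⁻¹, P), x * k = k * x := fun x hx => by
    have := hc _ (mem_cj.1 hx)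
    rw [inv_inv, conj_mul, conj_mul, mul_left_inj, mul_right_inj] at this
    exact this
  obtain ⟨m, hm, h5⟩ := (H.sylS0 hR).exists_cj_le (R := cj(g⁻¹, P) ⊔ zpowers k)
    (isPGroup_sup (isPGroup_cj _ hP) (pgrp_inv h3) (fun x hx => centralizer_le_normalizer' _ (by
      rw [centralizer_zpowers, mem_centralizer_singleton_iff]; exact h4 x hx)))
    (sup_le (fun x hx => H.cM h1 h2 h3 (h4 x hx)) (zpowers_le.2 (KM h1)))
  rw [cj_le_iff_forall] at h5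
  refine ⟨m * g⁻¹, ?_, fun x hx => ?_⟩
  · rw [show m * g⁻¹ * (g * k * g⁻¹) * (m * g⁻¹)⁻¹ = m * k * m⁻¹ by group]
    exact H.S0K hR.le (h5 _ (mem_sup_right (mem_zpowers k))) (conjK hm h1)
  · rw [show m * g⁻¹ * x * (m * g⁻¹)⁻¹ = m * (g⁻¹ * x * g⁻¹⁻¹) * m⁻¹ by group]
    exact h5 _ (mem_sup_left (conj_mem_cj _ hx))

theorem maxM [Finite G] (hR : IsSyl 2 R 𝐂[A]) {P : Subgroup G} (hP : IsPGroup 2 P) (h1 : R ⊔ TT τ ≤ P)
    {x : G} (hx : x ∈ P) (hM : x ∈ 𝐍[A]) : x ∈ R ⊔ TT τ :=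
  (H.sylS0 hR).max (P ⊓ 𝐍[A]) (hP.to_le inf_le_left) (le_inf h1 (H.S0M hR.le)) inf_le_right ⟨hx, hM⟩

theorem Dz {b c : 𝔽} {k : G} (hk : k ∈ 𝐂[A]) (hb : b ≠ 0) (hc : c ≠ 0) (hd : InD A (k * τ 0 b)) :
    InD A (k * τ 0 c) := by
  obtain ⟨i, hi⟩ := ex_pow' (c / b) (div_ne_zero hc hb)
  have := hd.conj (h ^ i)
  rwa [← mul_assoc, kc hk (pow_mem H.hmem i), mul_assoc k, mul_assoc k, H.hpow, hi, mul_zero,
    div_mul_cancel₀ _ hb] at this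

end St

end Cfsg.Agent.RuS
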