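import Cfsg.Agent.RuS.Basic

/-! Additive maps of the field with eight elements; counting by fibres. -/

set_option autoImplicit false

namespace Cfsg.Agent.RuS

open Subgroup Cfsg.Agent.Comp

/-- the additive map with values `x y z` on the basis -/
def lin (x y z a : 𝔽) : 𝔽 :=
  (if a.1 % 2 = 1 then x else 0) + (if a.1 / 2 % 2 = 1 then y else 0) + (if a.1 / 4 = 1 then z else 0)

theorem add0 {M : Type*} [AddGroup M] {N : Type*} [AddGroup N] {f : M → N} (hf : ∀ a b, f (a + b) = f a + f b) :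
    f 0 = 0 := by simpa using hf 0 0

theorem lin_eq {f : 𝔽 → 𝔽} (hf : ∀ a b, f (a + b) = f a + f b) : f = lin (f 1) (f 𝐥) (f (GF8.c 4)) := by
  funext a
  have : ∀ a : 𝔽, a = (if a.1 % 2 = 1 then 1 else 0) + (if a.1 / 2 % 2 = 1 then 𝐥 else 0) +
    (if a.1 / 4 = 1 then GF8.c 4 else 0) := by decide +kernel
  nth_rw 1 [this a]
  simp only [hf, lin, apply_ite f, add0 hf]

theorem semilin {f γ : 𝔽 → 𝔽} (hf : ∀ a b, f (a + b) = f a + f b) (hγ : ∀ a b, γ (a + b) = γ a + γ b)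
    (e : ∀ a, γ (a ^ 5) = f a ^ 5) : (∀ a, f a = f 1 * a) ∨ (∀ a, f a = f 1 * a ^ 2) ∨ ∀ a, f a = f 1 * a ^ 4 := by
  have k : ∀ x y z : 𝔽, (∀ a : 𝔽, lin x y z ((a ^ 5 + 1) ^ 3) ^ 5 = lin x y z a ^ 5 + x ^ 5) →
      (∀ a : 𝔽, lin x y z ((a ^ 5 + 𝐞) ^ 3) ^ 5 = lin x y z a ^ 5 + y ^ 5) →
      (∀ a, lin x y z a = x * a) ∨ (∀ a, lin x y z a = x * a ^ 2) ∨ ∀ a, lin x y z a = x * a ^ 4 := by
    decide +kernel
  have k2 : ∀ a : 𝔽, (a ^ 3) ^ 5 = a := by decide +kernel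
  have := k (f 1) (f 𝐥) (f (GF8.c 4))
  rw [← lin_eq hf] at this
  refine this (fun a => ?_) fun a => ?_
  · rw [← e, ← e, ← e, k2, hγ, one_pow]
  · rw [← e, ← e, ← e, k2, hγ, show 𝐥 ^ 5 = 𝐞 by decide +kernel]

theorem bil {b : 𝔽 → 𝔽 → 𝔽} (h1 : ∀ a a' x, b (a + a') x = b a x + b a' x)
    (h2 : ∀ a x x', b a (x + x') = b a x + b a x') (h3 : ∀ a x, b (𝐥 * a) (𝐞 * x) = 𝐞 * b a x) (a x : 𝔽) :
    b a x = b 1 1 * a ^ 2 * x ^ 2 := by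
  have k : ∀ x y z : 𝔽, (∀ a : 𝔽, 𝐞 * (𝐞 * (𝐞 * lin x y z a)) = 𝐞 * (𝐞 * lin x y z (𝐥 * a)) +
      lin x y z (𝐥 * (𝐥 * (𝐥 * a)))) → ∀ a, lin x y z a = x * a ^ 2 := by decide +kernel
  have := k (b 1 1) (b 𝐥 1) (b (GF8.c 4) 1)
  rw [← lin_eq (f := fun a => b a 1) fun _ _ => h1 _ _ _] at this
  have h4 := this fun a => by
    simp only [← h3, ← h2]
    exact congrArg _ (by decide +kernel)
  have h5 : ∀ (i : ℕ) a, b (𝐥 ^ i * a) (𝐞 ^ i) = 𝐞 ^ i * (b 1 1 * a ^ 2) := fun i a => by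
    induction i with
    | zero => simpa using h4 a
    | succ i ih => rw [pow_succ', pow_succ', mul_assoc, h3, ih, mul_assoc]
  by_cases hx : x = 0
  · simp [hx, add0 (h2 a)]
  obtain ⟨c, rfl⟩ := ex_p5 x
  have hc : c ≠ 0 := fun e => hx (p5_eq0.2 e)
  obtain ⟨i, e1, e2⟩ := ex_pow c hc
  have := h5 i (a / c)
  rw [e1, e2, mul_div_cancel₀ _ hc] at this
  rw [this]
  have h7 : ∀ c : 𝔽, c ≠ 0 → c ^ 7 = 1 := by decide +kernel
  field_simp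
  linear_combination (-b 1 1 * a ^ 2) * h7 c hc

theorem card_fib {G β : Type*} [Group G] [Finite G] {W K : Subgroup G} (f : G → β)
    (h : ∀ x ∈ W, ∀ y ∈ W, f x = f y ↔ x⁻¹ * y ∈ K) :
    Nat.card W = Nat.card (f '' W) * Nat.card ↥(W ⊓ K) := by
  have k : ∀ b : f '' W, ∃ x ∈ W, f x = b := fun b => b.2
  choose s hs hf using k
  rw [← Nat.card_prod]
  refine (Nat.card_congr (Equiv.ofBijective (fun p : f '' W × ↥(W ⊓ K) => (⟨s p.1 * p.2, mul_mem (hs _) p.2.2.1⟩ : W))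
    ⟨fun p q e => ?_, fun x => ?_⟩)).symm
  · have e1 : s p.1 * p.2 = s q.1 * q.2 := congrArg Subtype.val e
    have e2 : p.1 = q.1 := Subtype.ext (by
      rw [← hf, ← hf, h _ (hs _) _ (hs _), show (s p.1)⁻¹ * s q.1 = p.2 * (q.2 : G)⁻¹ by
        rw [inv_mul_eq_iff_eq_mul, ← mul_assoc, e1, mul_inv_cancel_right]]
      exact K.mul_mem p.2.2.2 (K.inv_mem q.2.2.2))
    rw [e2] at e1
    exact Prod.ext e2 (Subtype.ext (mul_left_cancel e1))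
  · exact ⟨(⟨_, x, x.2, rfl⟩, ⟨(s ⟨_, x, x.2, rfl⟩)⁻¹ * x, W.mul_mem (W.inv_mem (hs _)) x.2,
      (h _ (hs _) _ x.2).1 (hf _)⟩), Subtype.ext (mul_inv_cancel_left _ _)⟩

theorem card_fib_le {G : Type*} [Group G] [Finite G] {W K : Subgroup G} (f : G → 𝔽)
    (h : ∀ x ∈ W, ∀ y ∈ W, f x = f y ↔ x⁻¹ * y ∈ K) : Nat.card W ≤ 8 * Nat.card ↥(W ⊓ K) := by
  rw [card_fib f h]
  exact Nat.mul_le_mul_right _ ((Nat.card_le_card_of_injective _ Subtype.val_injective).trans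
    (Nat.card_eq_fintype_card.trans GF8.card).le)

theorem card_fib_eq {G : Type*} [Group G] [Finite G] {W K : Subgroup G} (f : G → 𝔽)
    (h : ∀ x ∈ W, ∀ y ∈ W, f x = f y ↔ x⁻¹ * y ∈ K) (hs : ∀ b, ∃ x ∈ W, f x = b) :
    Nat.card W = 8 * Nat.card ↥(W ⊓ K) := by
  rw [card_fib f h, Set.eq_univ_of_forall (s := f '' W) hs, Nat.card_univ, Nat.card_eq_fintype_card, GF8.card]

end Cfsg.Agent.RuS
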